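import Cfsg.Agent.H425.KShult
import Cfsg.Agent.SignalizersComponents.NoFixedGen
import Cfsg.Agent.SignalizersComponents.NoFixedAbelian

/-!
# Fixed point free primes and moved subgroups (S3440, helper425)

* `NoMov S s` : an element of order `s` of `S` centralizes every `u`-subgroup which it normalizes, `u ≠ s`, provided the
  subgroup is abelian or of order not divisible by `(s - 1) ^ 2`;
* `noMov_of` : `G` acts on the normal `r`-subgroup `R`, `C_G(R) ≤ K`, `S ≤ G ⧸ K`, `|K : C_G(R)|` and `r` prime to `|S|`;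
  `s ≠ 2` a prime not adjacent to `r`: `NoMov S s`.
-/

set_option autoImplicit false

namespace Cfsg.Agent.H425.NR

open Subgroup
open scoped commutatorElement
open Cfsg.Agent.H154.PG (NonAdj card_map_sylow exists_pow_orderOf)
open Cfsg.Agent.H425.KStep

universe u

/-- elements of order `s` centralize the abelian (or small) `u`-subgroups which they normalize, `u ≠ s` -/
def NoMov (S : Type*) [Group S] (s : ℕ) : Prop :=
  ∀ (u : ℕ) (P : Subgroup S) (x : S), u.Prime → u ≠ s → IsPGroup u P → orderOf x = s → (∀ a ∈ P, x * a * x⁻¹ ∈ P) →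
    ((∀ a ∈ P, ∀ b ∈ P, a * b = b * a) ∨ ¬ (s - 1) ^ 2 ∣ Nat.card P) → ∀ a ∈ P, x * a = a * x

theorem NoMov.congr {S T : Type*} [Group S] [Group T] (e : S ≃* T) {s : ℕ} (h : NoMov T s) : NoMov S s := by
  intro u P x hu hus hP hx hn hc a ha
  apply e.injective
  rw [map_mul, map_mul]
  refine h u (P.map e.toMonoidHom) (e x) hu hus (hP.map _) (by rw [← hx]; exact e.orderOf_eq x) ?_ ?_ (e a) ⟨a, ha, rfl⟩
  · rintro _ ⟨b, hb, rfl⟩
    exact ⟨x * b * x⁻¹, hn b hb, by simp⟩
  · rcases hc with hc | hc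
    · left
      rintro _ ⟨b, hb, rfl⟩ _ ⟨c, hc', rfl⟩
      change e b * e c = e c * e b
      rw [← map_mul, hc b hb c hc', map_mul]
    · right
      rwa [Nat.card_congr (P.equivMapOfInjective e.toMonoidHom e.injective).toEquiv.symm]

/-- odd characteristic: `Mov` is impossible -/
theorem NoMov.not_mov {S : Type*} [Group S] [Finite S] {s p : ℕ} (h : NoMov S s) (hp : p.Prime) (hs : s.Prime) (hps : p ≠ s)
    (hp2 : p ≠ 2) (hs2 : s ≠ 2) : ¬ Mov S p s := by
  rintro ⟨P, x, hP, hx, hn, a, ha, hne⟩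
  refine hne (h p P x hp hps hP hx hn (Or.inr ?_) a ha)
  intro h1
  have : Fact p.Prime := ⟨hp⟩
  obtain ⟨k, hk⟩ := (IsPGroup.iff_card (p := p)).1 hP
  have h2 : 2 ∣ s - 1 := by
    have := hs.eq_two_or_odd
    omega
  have h3 : 2 ∣ p ^ k := by
    rw [← hk]
    exact ((dvd_pow_self _ two_ne_zero).trans (pow_dvd_pow_of_dvd h2 2)).trans h1
  have h4 := Nat.prime_two.dvd_of_dvd_pow h3
  exact hp2 ((Nat.prime_dvd_prime_iff_eq Nat.prime_two hp).1 h4).symm

theorem noMov_of {G : Type u} [Group G] [Finite G] (K R : Subgroup G) [K.Normal] [R.Normal] {r : ℕ} (hr : r.Prime)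
    (hR : IsPGroup r R) (hC : centralizer (R : Set G) ≤ K) (S : Subgroup (G ⧸ K)) {s : ℕ} (hs : s.Prime) (hs2 : s ≠ 2)
    (hrS : ¬ r ∣ Nat.card S) (hna : NonAdj G s r)
    (hcop : ∀ u : ℕ, u.Prime → u ∣ Nat.card S → ¬ u ∣ (centralizer (R : Set G)).relIndex K) : NoMov S s := by
  intro u P x hu hus hP hx hn hc a ha
  by_cases ha1 : a = 1
  · rw [ha1, one_mul, mul_one]
  have : Fact u.Prime := ⟨hu⟩
  have : Fact s.Prime := ⟨hs⟩
  have : Fact r.Prime := ⟨hr⟩
  have huS : u ∣ Nat.card S := by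
    obtain ⟨k, hk⟩ := (IsPGroup.iff_orderOf.1 hP) ⟨a, ha⟩
    rw [Subgroup.orderOf_mk] at hk
    have hk0 : k ≠ 0 := by
      rintro rfl
      rw [pow_zero, orderOf_eq_one_iff] at hk
      exact ha1 hk
    exact ((dvd_pow_self u hk0).trans (by rw [← hk])).trans (orderOf_dvd_natCard a)
  have hsS : s ∣ Nat.card S := by rw [← hx]; exact orderOf_dvd_natCard x
  have hur : u ≠ r := by
    rintro rfl
    exact hrS huS
  have hsr : s ≠ r := by
    rintro rfl
    exact hrS hsS
  -- the action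
  set C : Subgroup G := centralizer (R : Set G) with hCdef
  have hCn : C.Normal := by rw [hCdef]; infer_instance
  let ψ : G →* MulAut R := MulAut.conjNormal
  have hψ : ∀ g ∈ C, ψ g = 1 := by
    intro g hg
    ext v
    change g * (v : G) * g⁻¹ = v
    rw [← (mem_centralizer_iff.1 hg v v.2), mul_inv_cancel_right]
  let φ : G ⧸ C →* MulAut R := QuotientGroup.lift C ψ hψ
  have hφ : Function.Injective φ := by
    rw [injective_iff_map_eq_one]
    intro y hy
    obtain ⟨g, rfl⟩ := QuotientGroup.mk'_surjective C y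
    refine (QuotientGroup.eq_one_iff g).2 ?_
    rw [hCdef, mem_centralizer_iff]
    intro v hv
    have h1 : ψ g ⟨v, hv⟩ = ⟨v, hv⟩ := by
      have h2 : φ (QuotientGroup.mk' C g) = ψ g := rfl
      rw [← h2, hy]
      rfl
    have h3 : g * v * g⁻¹ = v := congrArg Subtype.val h1
    rw [mul_inv_eq_iff_eq_mul] at h3
    exact h3.symm
  let π : G ⧸ C →* G ⧸ K := QuotientGroup.map C K (MonoidHom.id G) (by simpa using hC)
  have hπ : ∀ g : G, π (QuotientGroup.mk' C g) = QuotientGroup.mk' K g := fun g => rfl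
  have hπs : Function.Surjective π := by
    intro z
    obtain ⟨g, rfl⟩ := QuotientGroup.mk'_surjective K z
    exact ⟨_, hπ g⟩
  have hker : Nat.card π.ker = C.relIndex K := by
    have h1 : π.ker = K.map (QuotientGroup.mk' C) := by
      ext z
      obtain ⟨g, rfl⟩ := QuotientGroup.mk'_surjective C z
      rw [MonoidHom.mem_ker, hπ]
      constructor
      · intro h
        exact ⟨g, (QuotientGroup.eq_one_iff g).1 h, rfl⟩
      · rintro ⟨k, hk, hk2⟩
        rw [← hπ, ← hk2, hπ]
        exact (QuotientGroup.eq_one_iff k).2 hk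
    rw [h1, ← Subgroup.relIndex_ker, QuotientGroup.ker_mk']
  have hkerc : ∀ t : ℕ, t.Prime → t ∣ Nat.card S → ¬ t ∣ Nat.card π.ker := fun t ht htS => by
    rw [hker]
    exact hcop t ht htS
  -- everything in `G ⧸ K`
  set P' : Subgroup (G ⧸ K) := P.map S.subtype with hP'def
  have hP' : IsPGroup u P' := hP.map _
  set x' : G ⧸ K := (x : G ⧸ K) with hx'def
  have hx' : orderOf x' = s := by rw [hx'def, Subgroup.orderOf_coe, hx]
  have hxP' : ∀ b ∈ P', x' * b * x'⁻¹ ∈ P' := by
    rintro _ ⟨b, hb, rfl⟩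
    exact ⟨x * b * x⁻¹, hn b hb, rfl⟩
  obtain ⟨n0, hn0⟩ := hπs x'
  obtain ⟨y, hy, hyo⟩ := lift_order π hs (hkerc s hs hsS) (a := n0) (by rw [hn0, hx'])
  rw [hn0] at hy
  set X : Subgroup (G ⧸ C) := P'.comap π with hX
  have hXcard : Nat.card X = Nat.card π.ker * Nat.card P' := by
    have h1 := Subgroup.relIndex_ker (f := π) (K := X)
    have h2 : π.ker ≤ X := by
      intro k hk
      rw [hX, mem_comap, MonoidHom.mem_ker.1 hk]
      exact one_mem _
    rw [hX, Subgroup.map_comap_eq_self_of_surjective hπs, ← hX] at h1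
    rw [← h1, ← Subgroup.relIndex_bot_left, ← Subgroup.relIndex_bot_left, Subgroup.relIndex_mul_relIndex _ _ _ bot_le h2]
  have hPc : Nat.card P' = Nat.card P := Subgroup.card_map_of_injective S.subtype_injective
  obtain ⟨kk, hkk⟩ := (IsPGroup.iff_card (p := u)).1 hP
  have hsX : ¬ s ∣ Nat.card X := by
    rw [hXcard, hs.dvd_mul, not_or]
    refine ⟨hkerc s hs hsS, ?_⟩
    rw [hPc, hkk]
    intro h
    exact hus ((Nat.prime_dvd_prime_iff_eq hs hu).1 (hs.dvd_of_dvd_pow h)).symm
  have hyX : ∀ b ∈ zpowers y, ∀ v ∈ X, b * v * b⁻¹ ∈ X := by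
    have h1 : zpowers y ≤ normalizer (X : Set (G ⧸ C)) := by
      rw [zpowers_le]
      have h5 : ∀ v ∈ X, y * v * y⁻¹ ∈ X := by
        intro v hv
        change π (y * v * y⁻¹) ∈ P'
        rw [map_mul, map_mul, map_inv, hy]
        exact hxP' _ hv
      exact mem_normalizer_of_forall X y h5
    intro b hb v hv
    exact (mem_normalizer_iff.1 (h1 hb) v).1 hv
  have hyr : IsPGroup s (zpowers y) := by
    refine IsPGroup.of_card (n := 1) ?_
    rw [Nat.card_zpowers, hyo, pow_one]
  obtain ⟨U, hUX, hUp, hUi, hUy⟩ := Cfsg.Agent.Classification.QDW.FuCop.exists_inv hyr hsX hyX u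
  obtain ⟨j, hj⟩ := (IsPGroup.iff_card (p := u)).1 hUp
  have hU1 : ∀ v ∈ U, π v = 1 → v = 1 := by
    intro v hv h1
    obtain ⟨k, hk⟩ := (IsPGroup.iff_orderOf.1 hUp) ⟨v, hv⟩
    rw [Subgroup.orderOf_mk] at hk
    rw [← orderOf_eq_one_iff, hk]
    rcases Nat.eq_zero_or_pos k with h0 | h0
    · rw [h0, pow_zero]
    exfalso
    apply hkerc u hu huS
    refine (dvd_pow_self u h0.ne').trans ?_
    rw [← hk, ← Subgroup.orderOf_mk _ (MonoidHom.mem_ker.2 h1)]
    exact orderOf_dvd_natCard _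
  have hUP : ∀ b ∈ P', ∃ v ∈ U, π v = b := by
    let f' : X →* P' := π.subgroupComap P'
    have hf's : Function.Surjective f' := by
      rintro ⟨e, he⟩
      obtain ⟨n, rfl⟩ := hπs e
      exact ⟨⟨n, he⟩, rfl⟩
    have h1 : ((U.subgroupOf X).map f').index ∣ (U.subgroupOf X).index := Subgroup.index_map_dvd _ hf's
    have h2 : ((U.subgroupOf X).map f').index = 1 := by
      obtain ⟨k, hk⟩ := (IsPGroup.iff_card (p := u)).1 hP'
      have h3 : ((U.subgroupOf X).map f').index ∣ u ^ k := by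
        rw [← hk]
        exact Subgroup.index_dvd_card _
      obtain ⟨j, -, hj⟩ := (Nat.dvd_prime_pow hu).1 h3
      rcases Nat.eq_zero_or_pos j with h0 | h0
      · rw [hj, h0, pow_zero]
      · exfalso
        apply hUi
        refine Dvd.dvd.trans ?_ h1
        rw [hj]
        exact dvd_pow_self u h0.ne'
    rw [Subgroup.index_eq_one] at h2
    intro b hb
    have h3 : (⟨b, hb⟩ : P') ∈ (U.subgroupOf X).map f' := by
      rw [h2]
      exact mem_top _
    obtain ⟨v, hv, hvb⟩ := h3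
    exact ⟨(v : G ⧸ C), hv, congrArg Subtype.val hvb⟩
  have hUP' : ∀ v ∈ U, π v ∈ P' := fun v hv => hUX hv
  have hUcard : Nat.card U = Nat.card P := by
    rw [← hPc]
    refine Nat.card_congr (Equiv.ofBijective (fun v : U => (⟨π v, hUP' v v.2⟩ : P')) ⟨?_, ?_⟩)
    · intro v w hvw
      have h1 : π v = π w := congrArg Subtype.val hvw
      apply Subtype.ext
      rw [← mul_inv_eq_one]
      apply hU1 _ (mul_mem v.2 (inv_mem w.2))
      rw [map_mul, map_inv, h1, mul_inv_cancel]
    · rintro ⟨b, hb⟩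
      obtain ⟨v, hv, hvb⟩ := hUP b hb
      exact ⟨⟨v, hv⟩, Subtype.ext hvb⟩
  -- the semidirect product
  let Z : Type u := R ⋊[φ] (G ⧸ C)
  let il : R →* Z := SemidirectProduct.inl
  let ir : (G ⧸ C) →* Z := SemidirectProduct.inr
  have hil : Function.Injective il := SemidirectProduct.inl_injective
  have hir : Function.Injective ir := SemidirectProduct.inr_injective
  have hact : ∀ (g : G ⧸ C) (v : R), ir g * il v * (ir g)⁻¹ = il (φ g v) := fun g v => by
    have h1 := SemidirectProduct.inl_aut (φ := φ) g v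
    rw [map_inv] at h1
    exact h1.symm
  have hfinZ : Finite Z := Finite.of_equiv (R × (G ⧸ C)) SemidirectProduct.equivProd.symm
  set V : Subgroup Z := il.range with hV
  set K' : Subgroup Z := U.map ir with hK'
  set R' : Subgroup Z := (zpowers y).map ir with hR'
  have hVn : ∀ g : G ⧸ C, ir g ∈ normalizer (V : Set Z) := by
    intro g
    apply mem_normalizer_of_forall
    rintro _ ⟨v, rfl⟩
    exact ⟨φ g v, (hact g v).symm⟩
  have hR'c : Nat.card R' = s := by
    rw [hR', Subgroup.card_map_of_injective hir, Nat.card_zpowers, hyo]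
  have hK'c : Nat.card K' = u ^ j := by
    rw [hK', Subgroup.card_map_of_injective hir, hj]
  obtain ⟨k, hk⟩ := (IsPGroup.iff_card (p := r)).1 hR
  have hVc : Nat.card V = r ^ k := by
    rw [← hk]
    exact (Nat.card_congr (MonoidHom.ofInjective hil).toEquiv).symm
  have hRK : R' ≤ normalizer (K' : Set Z) := by
    rintro _ ⟨b, hb, rfl⟩
    apply mem_normalizer_of_forall
    rintro _ ⟨v, hv, rfl⟩
    exact ⟨b * v * b⁻¹, hUy b hb v hv, by rw [map_mul, map_mul, map_inv]⟩
  have hsolK : Group.IsSolvable K' := by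
    have h1 : IsPGroup u K' := hUp.map _
    have : Group.IsNilpotent K' := h1.isNilpotent
    infer_instance
  have hsolV : Group.IsSolvable V := by
    have h1 : IsPGroup r V := IsPGroup.of_card hVc
    have : Group.IsNilpotent V := h1.isNilpotent
    infer_instance
  have hcop1 : (Nat.card K').Coprime (Nat.card R') := by
    rw [hK'c, hR'c]
    exact Nat.Coprime.pow_left _ ((Nat.coprime_primes hu hs).2 hus)
  have hcop2 : (Nat.card V).Coprime (Nat.card K') := by
    rw [hK'c, hVc]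
    exact Nat.Coprime.pow _ _ ((Nat.coprime_primes hr hu).2 hur.symm)
  have hcop3 : (Nat.card V).Coprime (Nat.card R') := by
    rw [hVc, hR'c]
    exact Nat.Coprime.pow_left _ ((Nat.coprime_primes hr hs).2 hsr.symm)
  have hKV : K' ≤ normalizer (V : Set Z) := by
    rintro _ ⟨b, hb, rfl⟩
    exact hVn b
  have hRV : R' ≤ normalizer (V : Set Z) := by
    rintro _ ⟨b, hb, rfl⟩
    exact hVn b
  have hfix : V ⊓ centralizer (R' : Set Z) = ⊥ := by
    rw [eq_bot_iff]
    rintro _ ⟨⟨v, rfl⟩, hv⟩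
    rw [Subgroup.mem_bot]
    by_contra hv1
    have hv1' : (v : G) ≠ 1 := by
      intro h
      apply hv1
      have : v = 1 := Subtype.ext h
      rw [this, map_one]
    have h1 : φ y v = v := by
      apply hil
      rw [← hact, mul_inv_eq_iff_eq_mul]
      exact mem_centralizer_iff.1 hv _ ⟨y, mem_zpowers y, rfl⟩
    obtain ⟨g, hg⟩ := QuotientGroup.mk'_surjective C y
    have h2 : Commute g (v : G) := by
      have h3 : φ (QuotientGroup.mk' C g) = ψ g := rfl
      rw [← hg, h3] at h1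
      have h4 : g * (v : G) * g⁻¹ = v := congrArg Subtype.val h1
      rw [mul_inv_eq_iff_eq_mul] at h4
      exact h4
    have h5 : s ∣ orderOf g := by
      rw [← hyo, ← hg]
      exact orderOf_map_dvd _ _
    have h6 : orderOf (g ^ (orderOf g / s)) = s := orderOf_pow_orderOf_div (orderOf_pos g).ne' h5
    refine hna (adj_of_commute (P := zpowers (g ^ (orderOf g / s))) hs hr hsr (IsPGroup.of_card (n := 1) ?_) hR
      (mem_zpowers _) v.2 ?_ hv1' (h2.pow_left _))
    · rw [Nat.card_zpowers, h6, pow_one]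
    · intro h
      rw [h, orderOf_one] at h6
      exact hs.one_lt.ne h6
  have hcomm : ⁅K', R'⁆ ≤ centralizer (V : Set Z) := by
    rcases hc with hc | hc
    · refine Cfsg.Agent.SignalizersComponents.NoFixedAbelian.commutator_le_centralizer_of_fixedFree K' R' V hsolK ?_
        (by rw [hR'c]; exact hs) hRK hcop1 hKV hRV hsolV hcop2 hcop3 hfix
      rintro _ ⟨b, hb, rfl⟩ _ ⟨c, hc', rfl⟩
      rw [← map_mul, ← map_mul]
      congr 1
      rw [← mul_inv_eq_one]
      apply hU1 _ (mul_mem (mul_mem hb hc') (inv_mem (mul_mem hc' hb)))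
      obtain ⟨b1, hb1, hb2⟩ := hUP' b hb
      obtain ⟨c1, hc1, hc2⟩ := hUP' c hc'
      rw [map_mul, map_inv, map_mul, map_mul, ← hb2, ← hc2, ← map_mul, ← map_mul, hc b1 hb1 c1 hc1, mul_inv_cancel]
    · refine Cfsg.Agent.SignalizersComponents.NoFixedGen.commutator_le_centralizer_of_fixedFree K' R' V hsolK ?_
        (by rw [hR'c]; exact hs) (by rw [hR'c]; exact hs2) hRK hcop1 hKV hRV hsolV hcop2 hcop3 hfix
      rw [hR'c, hK'c, ← hj, hUcard]
      exact hc
  -- conclusion
  obtain ⟨v, hv, hva⟩ := hUP (a : G ⧸ K) ⟨a, ha, rfl⟩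
  have h1 : ⁅ir v, ir y⁆ ∈ centralizer (V : Set Z) :=
    hcomm (commutator_mem_commutator ⟨v, hv, rfl⟩ ⟨y, mem_zpowers y, rfl⟩)
  have h2 : φ ⁅v, y⁆ = 1 := by
    ext w : 1
    apply hil
    rw [← hact, ← map_commutatorElement] at *
    have h3 := mem_centralizer_iff.1 h1 (il w) ⟨w, rfl⟩
    rw [mul_inv_eq_iff_eq_mul]
    exact h3.symm
  have h3 : ⁅v, y⁆ = 1 := hφ (by rw [h2, map_one])
  have h4 : ⁅π v, π y⁆ = 1 := by rw [← map_commutatorElement, h3, map_one]
  rw [hva, hy, commutatorElement_eq_one_iff_mul_comm] at h4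
  apply Subtype.ext
  exact h4.symm

end Cfsg.Agent.H425.NR
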